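import Mathlib
import Cfsg.Agent.Lib.Helper58.QSim.Defs

/-!
# QSim (S5981): package CONJT, transport of the block structure under conjugation
-/

set_option autoImplicit false
open scoped MatrixGroups Matrix

namespace Cfsg.Agent.Lib.Helper31.QSim

universe u

open Cfsg.Agent.Lib.Helper58.QSim

theorem conj_aeval {F : Type u} [Field F] {n : ℕ} (g : GL (Fin n) F)
    (X : Matrix (Fin n) (Fin n) F) (f : Polynomial F) :
    Polynomial.aeval (((g⁻¹ : GL (Fin n) F) : Matrix (Fin n) (Fin n) F) * X *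
        (g : Matrix (Fin n) (Fin n) F)) f =
      ((g⁻¹ : GL (Fin n) F) : Matrix (Fin n) (Fin n) F) * Polynomial.aeval X f *
        (g : Matrix (Fin n) (Fin n) F) := by
  have hGi : ((g⁻¹ : GL (Fin n) F) : Matrix (Fin n) (Fin n) F) *
      (g : Matrix (Fin n) (Fin n) F) = 1 := by
    rw [← Units.val_mul]; simp
  induction f using Polynomial.induction_on' with
  | add p q hp hq =>
    rw [map_add, map_add, hp, hq, Matrix.mul_add, Matrix.add_mul]
  | monomial k a =>
    rw [Polynomial.aeval_monomial, Polynomial.aeval_monomial, Units.conj_pow']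
    rw [← Algebra.smul_def, ← Algebra.smul_def]
    rw [Matrix.mul_smul, Matrix.smul_mul]

theorem pkgConjT : PkgConjT.{u} := by
  intro F _ n r x g f hx hf
  have hGi : ((g⁻¹ : GL (Fin n) F) : Matrix (Fin n) (Fin n) F) *
      (g : Matrix (Fin n) (Fin n) F) = 1 := by
    rw [← Units.val_mul]; simp
  have hG : (g : Matrix (Fin n) (Fin n) F) *
      ((g⁻¹ : GL (Fin n) F) : Matrix (Fin n) (Fin n) F) = 1 := by
    rw [← Units.val_mul]; simp
  have hval : ((g⁻¹ * x * g : GL (Fin n) F) : Matrix (Fin n) (Fin n) F) =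
      ((g⁻¹ : GL (Fin n) F) : Matrix (Fin n) (Fin n) F) * (x : Matrix (Fin n) (Fin n) F) *
        (g : Matrix (Fin n) (Fin n) F) := by
    simp [Units.val_mul]
  have hsh : sh (g⁻¹ * x * g) 1 =
      ((g⁻¹ : GL (Fin n) F) : Matrix (Fin n) (Fin n) F) * sh x 1 *
        (g : Matrix (Fin n) (Fin n) F) := by
    unfold sh
    rw [hval, Matrix.mul_sub, Matrix.sub_mul, one_smul, Matrix.mul_one, hGi]
  have hpv : pv f (g⁻¹ * x * g) =
      ((g⁻¹ : GL (Fin n) F) : Matrix (Fin n) (Fin n) F) * pv f x *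
        (g : Matrix (Fin n) (Fin n) F) := by
    unfold pv
    rw [hval, conj_aeval]
  refine ⟨?_, ?_, ?_⟩
  · have : g⁻¹ * x * g = MulAut.conj g⁻¹ x := by simp
    rw [this, ← map_pow, hx, map_one]
  · rw [hpv, hsh]
    have : ((g⁻¹ : GL (Fin n) F) : Matrix (Fin n) (Fin n) F) * pv f x *
        (g : Matrix (Fin n) (Fin n) F) *
        (((g⁻¹ : GL (Fin n) F) : Matrix (Fin n) (Fin n) F) * sh x 1 *
        (g : Matrix (Fin n) (Fin n) F)) =
        ((g⁻¹ : GL (Fin n) F) : Matrix (Fin n) (Fin n) F) * (pv f x * sh x 1) *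
        (g : Matrix (Fin n) (Fin n) F) := by
      calc ((g⁻¹ : GL (Fin n) F) : Matrix (Fin n) (Fin n) F) * pv f x *
        (g : Matrix (Fin n) (Fin n) F) *
        (((g⁻¹ : GL (Fin n) F) : Matrix (Fin n) (Fin n) F) * sh x 1 *
        (g : Matrix (Fin n) (Fin n) F))
          = ((g⁻¹ : GL (Fin n) F) : Matrix (Fin n) (Fin n) F) * pv f x *
        ((g : Matrix (Fin n) (Fin n) F) *
        ((g⁻¹ : GL (Fin n) F) : Matrix (Fin n) (Fin n) F)) * sh x 1 *
        (g : Matrix (Fin n) (Fin n) F) := by simp only [Matrix.mul_assoc]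
        _ = _ := by rw [hG, Matrix.mul_one]; simp only [Matrix.mul_assoc]
    rw [this, hf, Matrix.mul_zero, Matrix.zero_mul]
  · rw [hsh]
    have hdg : IsUnit (g : Matrix (Fin n) (Fin n) F).det := by
      have := (Matrix.isUnit_iff_isUnit_det (g : Matrix (Fin n) (Fin n) F)).mp g.isUnit
      exact this
    have hdgi : IsUnit ((g⁻¹ : GL (Fin n) F) : Matrix (Fin n) (Fin n) F).det := by
      have := (Matrix.isUnit_iff_isUnit_det
        ((g⁻¹ : GL (Fin n) F) : Matrix (Fin n) (Fin n) F)).mp (g⁻¹).isUnit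
      exact this
    rw [Matrix.rank_mul_eq_left_of_isUnit_det _ _ hdg,
      Matrix.rank_mul_eq_right_of_isUnit_det _ _ hdgi]

end Cfsg.Agent.Lib.Helper31.QSim
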