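import Mathlib
import Cfsg.Agent.Lib.Helper58.QSim.Defs

/-!
# QSim (S5981): package RECIP, irreducible factors of `X^r - 1` and their reciprocals
-/

set_option autoImplicit false
open scoped MatrixGroups Matrix

namespace Cfsg.Agent.Lib.Helper31.QSim

universe u

open Cfsg.Agent.Lib.Helper58.QSim

theorem pkgRecip : PkgRecip.{u} := by
  intro F _ _ r f hr hr2 hrq hf hdvd hdeg h2
  have : Fact r.Prime := ⟨hr⟩
  have : Fact (Irreducible f) := ⟨hf⟩
  have hα : Polynomial.aeval (AdjoinRoot.root f) f = 0 := by
    rw [AdjoinRoot.aeval_eq, AdjoinRoot.mk_self]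
  have hαr : (AdjoinRoot.root f) ^ r = 1 := by
    obtain ⟨g, hg⟩ := hdvd
    have : Polynomial.aeval (AdjoinRoot.root f) (Polynomial.X ^ r - 1 : Polynomial F) = 0 := by
      rw [hg, map_mul, hα, zero_mul]
    simpa [sub_eq_zero] using this
  have hα1 : (AdjoinRoot.root f) ≠ 1 := by
    intro h
    have h0 : AdjoinRoot.mk f (Polynomial.X - Polynomial.C 1) = 0 := by
      rw [map_sub, AdjoinRoot.mk_X, AdjoinRoot.mk_C, map_one, h, sub_self]
    rw [AdjoinRoot.mk_eq_zero] at h0
    have := Polynomial.natDegree_le_of_dvd h0 (Polynomial.X_sub_C_ne_zero 1)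
    rw [Polynomial.natDegree_X_sub_C] at this
    omega
  have hα0 : (AdjoinRoot.root f) ≠ 0 := by
    intro h
    rw [h, zero_pow hr.ne_zero] at hαr
    exact zero_ne_one hαr
  have horder : orderOf (AdjoinRoot.root f) = r := orderOf_eq_prime hαr hα1
  have hfrob : ∀ β : AdjoinRoot f, Polynomial.aeval β f = 0 →
      Polynomial.aeval (β ^ Fintype.card F) f = 0 := by
    intro β hβ
    rw [← Polynomial.expand_aeval, FiniteField.expand_card, map_pow, hβ, zero_pow]
    exact Fintype.card_ne_zero
  have hroots : ∀ j : ℕ, Polynomial.aeval ((AdjoinRoot.root f) ^ (Fintype.card F) ^ j) f = 0 := by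
    intro j
    induction j with
    | zero => simp [hα]
    | succ j ih =>
      have := hfrob _ ih
      rwa [← pow_mul, ← pow_succ] at this
  have hqi : ((Fintype.card F : ℕ) : ZMod r) ^ f.natDegree = 1 := by
    rw [hdeg]; exact pow_orderOf_eq_one _
  have hrev : ∀ β : AdjoinRoot f, β ≠ 0 →
      (Polynomial.aeval β f.reverse = 0 ↔ Polynomial.aeval β⁻¹ f = 0) := by
    intro β hβ
    let _ : Invertible β⁻¹ := invertibleOfNonzero (inv_ne_zero hβ)
    have := Polynomial.eval₂_reverse_eq_zero_iff (algebraMap F (AdjoinRoot f)) β⁻¹ f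
    rw [invOf_eq_inv, inv_inv] at this
    rw [Polynomial.aeval_def, Polynomial.aeval_def]
    exact this
  refine ⟨?_, ?_⟩
  · rintro ⟨e, he⟩
    have hqe2 : (((Fintype.card F : ℕ) : ZMod r) ^ e) * (((Fintype.card F : ℕ) : ZMod r) ^ e) = 1 := by
      rw [← pow_add, ← he, hqi]
    have hqe1 : ((Fintype.card F : ℕ) : ZMod r) ^ e ≠ 1 := by
      apply pow_ne_one_of_lt_orderOf (by omega)
      rw [← hdeg]; omega
    have hqe : ((Fintype.card F : ℕ) : ZMod r) ^ e = -1 := by
      rcases mul_self_eq_one_iff.mp hqe2 with h | h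
      · exact absurd h hqe1
      · exact h
    have hdiv : r ∣ (Fintype.card F) ^ e + 1 := by
      rw [← CharP.cast_eq_zero_iff (ZMod r) r]
      push_cast
      rw [hqe]; ring
    have hinv : (AdjoinRoot.root f) ^ (Fintype.card F) ^ e = (AdjoinRoot.root f)⁻¹ := by
      have : (AdjoinRoot.root f) ^ ((Fintype.card F) ^ e + 1) = 1 := by
        obtain ⟨c, hc⟩ := hdiv
        rw [hc, pow_mul, hαr, one_pow]
      rw [pow_succ] at this
      exact eq_inv_of_mul_eq_one_left this
    have hrootinv : Polynomial.aeval (AdjoinRoot.root f)⁻¹ f = 0 := by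
      rw [← hinv]; exact hroots e
    have := (hrev _ hα0).mpr hrootinv
    rw [AdjoinRoot.aeval_eq, AdjoinRoot.mk_eq_zero] at this
    exact this
  · intro hodd
    rcases hf.isCoprime_or_dvd f.reverse with h | h
    · exact h
    · exfalso
      have h1 : Polynomial.aeval (AdjoinRoot.root f) f.reverse = 0 := by
        rw [AdjoinRoot.aeval_eq, AdjoinRoot.mk_eq_zero]; exact h
      have h2 : Polynomial.aeval (AdjoinRoot.root f)⁻¹ f = 0 := (hrev _ hα0).mp h1
      have hfK0 : f.map (algebraMap F (AdjoinRoot f)) ≠ 0 :=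
        (Polynomial.map_ne_zero_iff (algebraMap F (AdjoinRoot f)).injective).mpr hf.ne_zero
      have hinj : Set.InjOn (fun j => (AdjoinRoot.root f) ^ (Fintype.card F) ^ j)
          (Finset.range f.natDegree : Set ℕ) := by
        intro j hj k hk hjk
        simp only at hjk
        have hu : (Units.mk0 _ hα0) ^ (Fintype.card F) ^ j =
            (Units.mk0 _ hα0) ^ (Fintype.card F) ^ k := by
          apply Units.ext
          simpa using hjk
        rw [pow_eq_pow_iff_modEq, ← orderOf_units, Units.val_mk0, horder] at hu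
        have := (ZMod.natCast_eq_natCast_iff _ _ _).mpr hu
        push_cast at this
        have hj' : j ∈ Set.Iio (orderOf ((Fintype.card F : ℕ) : ZMod r)) := by
          rw [← hdeg]; simpa using hj
        have hk' : k ∈ Set.Iio (orderOf ((Fintype.card F : ℕ) : ZMod r)) := by
          rw [← hdeg]; simpa using hk
        exact pow_injOn_Iio_orderOf hj' hk' this
      have hScard : ((Finset.range f.natDegree).image
          (fun j => (AdjoinRoot.root f) ^ (Fintype.card F) ^ j)).card = f.natDegree := by
        rw [Finset.card_image_of_injOn hinj, Finset.card_range]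
      have hSsub : (Finset.range f.natDegree).image
          (fun j => (AdjoinRoot.root f) ^ (Fintype.card F) ^ j) ⊆
          (f.map (algebraMap F (AdjoinRoot f))).roots.toFinset := by
        intro β hβ
        obtain ⟨j, hj, rfl⟩ := Finset.mem_image.mp hβ
        rw [Multiset.mem_toFinset, Polynomial.mem_roots hfK0, Polynomial.IsRoot.def,
          Polynomial.eval_map, ← Polynomial.aeval_def]
        exact hroots j
      have hcard : (f.map (algebraMap F (AdjoinRoot f))).roots.toFinset.card ≤
          ((Finset.range f.natDegree).image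
          (fun j => (AdjoinRoot.root f) ^ (Fintype.card F) ^ j)).card := by
        rw [hScard]
        calc (f.map (algebraMap F (AdjoinRoot f))).roots.toFinset.card
            ≤ Multiset.card (f.map (algebraMap F (AdjoinRoot f))).roots :=
              Multiset.toFinset_card_le _
          _ ≤ (f.map (algebraMap F (AdjoinRoot f))).natDegree := Polynomial.card_roots' _
          _ = f.natDegree := Polynomial.natDegree_map _
      have hSeq := Finset.eq_of_subset_of_card_le hSsub hcard
      have hmem : (AdjoinRoot.root f)⁻¹ ∈ (Finset.range f.natDegree).image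
          (fun j => (AdjoinRoot.root f) ^ (Fintype.card F) ^ j) := by
        rw [hSeq, Multiset.mem_toFinset, Polynomial.mem_roots hfK0, Polynomial.IsRoot.def,
          Polynomial.eval_map, ← Polynomial.aeval_def]
        exact h2
      obtain ⟨j, hj, hjα⟩ := Finset.mem_image.mp hmem
      have hdiv : r ∣ (Fintype.card F) ^ j + 1 := by
        rw [← horder]
        apply orderOf_dvd_of_pow_eq_one
        rw [pow_succ, hjα, inv_mul_cancel₀ hα0]
      have hqj : ((Fintype.card F : ℕ) : ZMod r) ^ j = -1 := by
        have := (CharP.cast_eq_zero_iff (ZMod r) r _).mpr hdiv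
        push_cast at this
        exact eq_neg_of_add_eq_zero_left this
      have hq2j : ((Fintype.card F : ℕ) : ZMod r) ^ (2 * j) = 1 := by
        rw [mul_comm, pow_mul, hqj]; norm_num
      have hi2j : f.natDegree ∣ 2 * j := by
        rw [hdeg]; exact orderOf_dvd_of_pow_eq_one hq2j
      have hij : f.natDegree ∣ j :=
        Nat.Coprime.dvd_of_dvd_mul_left (Nat.coprime_two_right.mpr hodd) hi2j
      have hqj1 : ((Fintype.card F : ℕ) : ZMod r) ^ j = 1 := by
        obtain ⟨c, hc⟩ := hij
        rw [hc, pow_mul, hqi, one_pow]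
      have h11 : (1 : ZMod r) = -1 := hqj1.symm.trans hqj
      have h2z : ((2 : ℕ) : ZMod r) = 0 := by
        push_cast
        linear_combination h11
      have := (CharP.cast_eq_zero_iff (ZMod r) r 2).mp h2z
      exact hr2 ((Nat.prime_dvd_prime_iff_eq hr Nat.prime_two).mp this)

end Cfsg.Agent.Lib.Helper31.QSim
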